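import Cfsg.Agent.S0033
import Cfsg.Agent.Lib.Cores
import Cfsg.Agent.Lib.ElemAbGL
import Cfsg.Agent.SolvableStructure.MinimalNormal

/-!
# Overgroups of a subgroup controlling the normaliser of a Sylow subgroup of prime order (helper77, for S5527)

`index_modEq` : if `P` is a Sylow `p`-subgroup of `K ≤ X` with `N_X(P) ≤ K`, then `|X : K| ≡ 1 (mod p)`.
`cases` : the two possibilities for a minimal normal subgroup of `X`.
-/

set_option autoImplicit false
set_option linter.unusedSectionVars false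
set_option linter.style.haveILetI false

namespace Cfsg.Agent.BMx.Abs

open Subgroup
open scoped Pointwise

/-- every nontrivial normal subgroup has index at most two -/
def Q2 (H : Type*) [Group H] : Prop := ∀ M : Subgroup H, M.Normal → M = ⊥ ∨ M.index ∣ 2

theorem Q2.of_simple {H : Type*} [Group H] (h : IsSimpleGroup H) : Q2 H := fun M hM => by
  rcases h.eq_bot_or_eq_top_of_normal M hM with h1 | h1
  · exact Or.inl h1
  · exact Or.inr (by rw [h1, index_top]; exact one_dvd _)

theorem Q2.congr {H L : Type*} [Group H] [Group L] (e : H ≃* L) (h : Q2 L) : Q2 H := fun M hM => by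
  rcases h (M.map (e : H →* L)) (hM.map _ e.surjective) with h1 | h1
  · exact Or.inl ((map_eq_bot_iff_of_injective M e.injective).1 h1)
  · right
    rwa [index_map_equiv] at h1

variable {X : Type} [Group X] [Finite X]

/-- an element of odd prime order lies in a subgroup of index at most two -/
theorem mem_of_index {M : Subgroup X} [M.Normal] (h : M.index ∣ 2) {x : X} {n : ℕ} (hn : Odd n) (hx : x ^ n = 1) :
    x ∈ M := by
  obtain ⟨c, hc⟩ := h
  have h2 : x ^ 2 ∈ M := by
    rw [hc, pow_mul]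
    exact M.pow_mem (M.pow_index_mem x) c
  obtain ⟨m, hm⟩ := hn
  have h3 : x = ((x ^ 2) ^ m)⁻¹ := by
    rw [eq_inv_iff_mul_eq_one, ← pow_mul, ← pow_succ', ← hm, hx]
  rw [h3]
  exact M.inv_mem (M.pow_mem h2 m)

/-- conjugacy of Sylow subgroups of `K` -/
theorem exists_conj {K P Q : Subgroup X} {p : ℕ} [Fact p.Prime] (hPK : P ≤ K) (hQK : Q ≤ K) (hP : IsPGroup p P)
    (hQc : Nat.card Q = Nat.card P) (hs : ¬ p * Nat.card P ∣ Nat.card K) :
    ∃ k ∈ K, ∀ a ∈ P, k * a * k⁻¹ ∈ Q := by
  have key : ∀ Q : Subgroup X, Q ≤ K → Nat.card Q = Nat.card P → ¬ p ∣ (Q.subgroupOf K).index := by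
    intro Q hQ hc hd
    apply hs
    have h1 := (Q.subgroupOf K).card_mul_index
    rw [Nat.card_congr (subgroupOfEquivOfLe hQ).toEquiv, hc] at h1
    rw [← h1, mul_comm]
    exact Nat.mul_dvd_mul_left _ hd
  have hQ : IsPGroup p Q := by
    obtain ⟨n, hn⟩ := IsPGroup.iff_card.1 hP
    exact IsPGroup.of_card (hQc.trans hn)
  let P1 : Sylow p K := (hP.comap_subtype (K := K)).toSylow (key P hPK rfl)
  let Q1 : Sylow p K := (hQ.comap_subtype (K := K)).toSylow (key Q hQK hQc)
  obtain ⟨k, hk⟩ := MulAction.exists_smul_eq K P1 Q1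
  refine ⟨k, k.2, fun a ha => ?_⟩
  have h2 : k * ⟨a, hPK ha⟩ * k⁻¹ ∈ (k • P1 : Sylow p K) := by
    change k * ⟨a, hPK ha⟩ * k⁻¹ ∈ MulAut.conj k • (P1 : Subgroup K)
    exact smul_mem_pointwise_smul (⟨a, hPK ha⟩ : K) (MulAut.conj k) (P1 : Subgroup K) ha
  rw [hk] at h2
  exact h2

/-- the Sylow argument -/
theorem mem_of_conj {K P : Subgroup X} {p : ℕ} [Fact p.Prime] (hPK : P ≤ K) (hP : IsPGroup p P)
    (hs : ¬ p * Nat.card P ∣ Nat.card K) (hN : normalizer (P : Set X) ≤ K) {x : X}
    (hx : ∀ a ∈ P, x⁻¹ * a * x ∈ K) : x ∈ K := by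
  let Q : Subgroup X := P.map (MulAut.conj x⁻¹).toMonoidHom
  have hQK : Q ≤ K := by
    rintro _ ⟨a, ha, rfl⟩
    have h := hx a ha
    change x⁻¹ * a * x⁻¹⁻¹ ∈ K
    rwa [inv_inv]
  have hQc : Nat.card Q = Nat.card P := card_map_of_injective (MulAut.conj x⁻¹).injective
  obtain ⟨k, hkK, hk⟩ := exists_conj hPK hQK hP hQc hs
  have h1 : x * k ∈ normalizer (P : Set X) := by
    apply mem_normalizer_fintype
    intro a ha
    obtain ⟨b, hb, hb2⟩ := hk a ha
    have h3 : x⁻¹ * b * x⁻¹⁻¹ = k * a * k⁻¹ := hb2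
    have h4 : x * k * a * (x * k)⁻¹ = b := by
      calc x * k * a * (x * k)⁻¹ = x * (k * a * k⁻¹) * x⁻¹ := by group
        _ = b := by rw [← h3]; group
    rw [h4]
    exact hb
  have h5 := K.mul_mem (hN h1) (K.inv_mem hkK)
  rwa [mul_inv_cancel_right] at h5

/-- **The index congruence.** -/
theorem index_modEq {K P : Subgroup X} {p : ℕ} [Fact p.Prime] (hPK : P ≤ K) (hP : IsPGroup p P)
    (hs : ¬ p * Nat.card P ∣ Nat.card K) (hN : normalizer (P : Set X) ≤ K) : K.index ≡ 1 [MOD p] := by
  have h := hP.card_modEq_card_fixedPoints (X ⧸ K)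
  have h1 : Nat.card (MulAction.fixedPoints P (X ⧸ K)) = 1 := by
    rw [Nat.card_eq_one_iff_exists]
    refine ⟨⟨((1 : X) : X ⧸ K), fun a => ?_⟩, ?_⟩
    · change (((a : X) * 1 : X) : X ⧸ K) = ((1 : X) : X ⧸ K)
      rw [QuotientGroup.eq, mul_one, mul_one]
      exact K.inv_mem (hPK a.2)
    · rintro ⟨y, hy⟩
      obtain ⟨x, rfl⟩ := QuotientGroup.mk_surjective y
      apply Subtype.ext
      change (x : X ⧸ K) = ((1 : X) : X ⧸ K)
      rw [QuotientGroup.eq, mul_one]
      refine K.inv_mem (mem_of_conj hPK hP hs hN fun a ha => ?_)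
      have h2 : (((a⁻¹ : X) * x : X) : X ⧸ K) = (x : X ⧸ K) := hy ⟨a⁻¹, P.inv_mem ha⟩
      rw [QuotientGroup.eq] at h2
      have h3 : (a⁻¹ * x)⁻¹ * x = x⁻¹ * a * x := by group
      rwa [h3] at h2
  rwa [h1] at h

/-- fixed points of a `p`-subgroup on a normal subgroup -/
theorem card_modEq_cent (N A : Subgroup X) [N.Normal] {p : ℕ} [Fact p.Prime] (hA : IsPGroup p A) :
    Nat.card N ≡ Nat.card ↥(N ⊓ centralizer (A : Set X)) [MOD p] := by
  letI : MulAction A N := MulAction.compHom N ((MulAut.conjNormal (H := N)).comp A.subtype)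
  have h := hA.card_modEq_card_fixedPoints N
  have h1 : Nat.card (MulAction.fixedPoints A N) = Nat.card ↥(N ⊓ centralizer (A : Set X)) := by
    refine Nat.card_congr
      { toFun := fun y => ⟨y.1.1, y.1.2, fun a ha => ?_⟩
        invFun := fun y => ⟨⟨y.1, y.2.1⟩, fun a => Subtype.ext ?_⟩
        left_inv := fun y => rfl
        right_inv := fun y => rfl }
    · have h2 : a * y.1.1 * a⁻¹ = y.1.1 := congrArg Subtype.val (y.2 ⟨a, ha⟩)
      exact mul_inv_eq_iff_eq_mul.1 h2
    · change (a : X) * y.1 * (a : X)⁻¹ = y.1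
      exact mul_inv_eq_iff_eq_mul.2 (y.2.2 a a.2)
  rwa [h1] at h

/-- an elementary abelian normal subgroup on which `K` acts faithfully -/
structure CaseA (K N : Subgroup X) (q k : ℕ) : Prop where
  normal : N.Normal
  prime : q.Prime
  pos : 0 < k
  card : Nat.card N = q ^ k
  comm : ∀ a ∈ N, ∀ b ∈ N, a * b = b * a
  pow : ∀ a ∈ N, a ^ q = 1
  disj : N ⊓ K = ⊥
  faith : ∀ g ∈ K, (∀ x ∈ N, g * x = x * g) → g = 1

/-- a simple normal subgroup supplementing `K` -/
structure CaseB (K T : Subgroup X) : Prop where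
  normal : T.Normal
  simple : IsSimpleGroup T
  nab : ¬ ∀ a b : T, a * b = b * a
  idx : (T.subgroupOf K).index ∣ 2
  idx2 : T.index ∣ 2
  card : Nat.card T = K.index * Nat.card (T.subgroupOf K)

theorem cent_le_norm (A : Subgroup X) : centralizer (A : Set X) ≤ normalizer (A : Set X) :=
  centralizer_le_normalizer _

theorem CaseA.modEq {K N : Subgroup X} {q k : ℕ} (h : CaseA K N q k) {A : Subgroup X} {p : ℕ} [Fact p.Prime]
    (hA : IsPGroup p A) (hN : normalizer (A : Set X) ≤ K) : q ^ k ≡ 1 [MOD p] := by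
  have := h.normal
  have h1 := card_modEq_cent N A hA
  have h2 : N ⊓ centralizer (A : Set X) = ⊥ := by
    rw [eq_bot_iff, ← h.disj]
    exact inf_le_inf_left _ ((cent_le_norm A).trans hN)
  rwa [h2, card_bot, h.card] at h1

theorem CaseA.gl {K N : Subgroup X} {q k : ℕ} (h : CaseA K N q k) [Fact q.Prime] :
    ∃ f : K →* GL (Fin k) (ZMod q), Function.Injective f := by
  have := h.normal
  letI : CommGroup N := { (inferInstance : Group N) with mul_comm := fun a b => Subtype.ext (h.comm a a.2 b b.2) }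
  obtain ⟨e⟩ := Lib.ElemAbGL.mulAut_equiv_GL (V := N) q k (fun x => Subtype.ext (h.pow x x.2)) h.card
  refine ⟨e.toMonoidHom.comp ((MulAut.conjNormal (H := N)).comp K.subtype), ?_⟩
  rw [injective_iff_map_eq_one]
  intro g hg
  have h1 : (MulAut.conjNormal (g : X) : MulAut N) = 1 := (MulEquiv.map_eq_one_iff e).1 hg
  refine Subtype.ext (h.faith g g.2 fun x hx => ?_)
  have h3 := congrArg Subtype.val (DFunLike.congr_fun h1 (⟨x, hx⟩ : N))
  have h2 : (g : X) * x * (g : X)⁻¹ = x := h3
  exact mul_inv_eq_iff_eq_mul.1 h2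

/-- **The two cases.** -/
theorem cases {K R : Subgroup X} {r : ℕ} (hr : r.Prime) (hodd : Odd r) (hRK : R ≤ K) (hR : Nat.card R = r)
    (h2 : ¬ r ^ 2 ∣ Nat.card X) (hN : normalizer (R : Set X) ≤ K) (hK : K ≠ ⊤) (hQ : Q2 K)
    (hbig : 2 * r < Nat.card K) :
    (∃ (N : Subgroup X) (q k : ℕ), CaseA K N q k) ∨ ∃ T : Subgroup X, CaseB K T := by
  have hfr : Fact r.Prime := ⟨hr⟩
  have htop : (⊤ : Subgroup X) ≠ ⊥ := fun h => hK (by rw [eq_top_iff, h]; exact bot_le)
  obtain ⟨N, ⟨hNn, hNb⟩, hmin0⟩ := Set.exists_min_image {N : Subgroup X | N.Normal ∧ N ≠ ⊥} (fun N => Nat.card N)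
    (Set.toFinite _) ⟨⊤, inferInstance, htop⟩
  have hmin : ∀ M : Subgroup X, M.Normal → M ≤ N → M = ⊥ ∨ M = N := by
    intro M hM hle
    by_cases hb : M = ⊥
    · exact Or.inl hb
    · exact Or.inr (eq_of_le_of_card_ge hle (hmin0 M ⟨hM, hb⟩))
  have hRpow : ∀ x ∈ R, x ^ r = 1 := fun x hx => by
    have h := pow_card_eq_one' (G := R) (x := ⟨x, hx⟩)
    rw [hR] at h
    exact congrArg Subtype.val h
  -- normal subgroups of `K`
  have hQ' : ∀ M : Subgroup X, (M.subgroupOf K).Normal → M ⊓ K = ⊥ ∨ ((M.subgroupOf K).index ∣ 2 ∧ R ≤ M) := by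
    intro M hM
    rcases hQ _ hM with h | h
    · left
      rw [subgroupOf_eq_bot] at h
      exact disjoint_iff.1 h
    · right
      refine ⟨h, fun x hx => ?_⟩
      exact mem_of_index (x := (⟨x, hRK hx⟩ : K)) h hodd (Subtype.ext (hRpow x hx))
  have hRb : R ≠ ⊥ := fun h => by
    rw [h, card_bot] at hR
    exact hr.one_lt.ne hR
  have hRp : IsPGroup r R := IsPGroup.of_card (n := 1) (by rw [hR, pow_one])
  have hRi : ¬ r ∣ R.index := fun hd => h2 (by
    rw [← R.card_mul_index, hR, pow_two]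
    exact Nat.mul_dvd_mul_left _ hd)
  rcases hQ' N inferInstance with hd | ⟨hi, hRN⟩
  · left
    obtain ⟨x, hx⟩ := exists_prime_orderOf_dvd_card' (G := R) r (by rw [hR])
    have hxR : zpowers (x : X) = R := by
      apply eq_of_le_of_card_ge (zpowers_le.2 x.2)
      rw [Nat.card_zpowers, orderOf_coe, hx, hR]
    have hfix : ∀ y ∈ N, (x : X) * y * (x : X)⁻¹ = y → y = 1 := by
      intro y hy hxy
      have h3 : y ∈ N ⊓ K := by
        refine ⟨hy, hN (cent_le_norm R ?_)⟩
        rw [← hxR]
        rintro _ ⟨n, rfl⟩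
        exact ((show Commute (x : X) y from mul_inv_eq_iff_eq_mul.1 hxy).zpow_left n).eq
      rwa [hd, mem_bot] at h3
    have hnt : Nontrivial N := (nontrivial_iff_ne_bot N).2 hNb
    have hnil : Group.IsNilpotent N := by
      refine S0033.result (MulAut.conjNormal (x : X) : MulAut N) (fun y hy => Subtype.ext (hfix y y.2 ?_)) r hr ?_
      · exact congrArg Subtype.val hy
      · refine orderOf_eq_prime ?_ fun h1 => ?_
        · rw [← map_pow, hRpow x x.2, map_one]
        · obtain ⟨y, hy⟩ := exists_ne (1 : N)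
          exact hy (Subtype.ext (hfix y y.2 (congrArg Subtype.val (DFunLike.congr_fun h1 y))))
    have hcomm : ∀ a ∈ N, ∀ b ∈ N, a * b = b * a := by
      have hZ : (center N).map N.subtype = N := by
        refine (hmin _ inferInstance (map_subtype_le _)).resolve_left fun h => ?_
        rw [map_eq_bot_iff_of_injective _ N.subtype_injective] at h
        exact Group.IsNilpotent.center_ne_bot N h
      intro a ha b hb
      rw [← hZ] at ha
      obtain ⟨a', ha', rfl⟩ := ha
      exact congrArg Subtype.val (mem_center_iff.1 ha' ⟨b, hb⟩).symm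
    obtain ⟨q, hq, hpow⟩ := SolvableStructure.MinimalNormal.exists_prime_pow_eq_one N hNb hmin hcomm
    obtain ⟨k, hk, hc⟩ := SolvableStructure.MinimalNormal.exists_card_eq_prime_pow N hNb hq hpow
    refine ⟨N, q, k, hNn, hq, hk, hc, hcomm, hpow, hd, fun g hg hgc => ?_⟩
    rcases hQ' (centralizer (N : Set X)) inferInstance with h3 | ⟨-, h3⟩
    · have h4 : g ∈ centralizer (N : Set X) ⊓ K := ⟨fun y hy => (hgc y hy).symm, hg⟩
      rwa [h3, mem_bot] at h4
    · exfalso
      apply hNb
      rw [eq_bot_iff]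
      intro y hy
      exact mem_bot.2 (hfix y hy (mul_inv_eq_iff_eq_mul.2 (h3 x.2 y hy).symm))
  · right
    have hsup : K ⊔ N = ⊤ := by
      have h3 := Sylow.normalizer_sup_eq_top' (hRp.toSylow hRi) hRN
      rw [eq_top_iff, ← h3]
      exact sup_le_sup_right hN _
    have hidx : N.index = (N.subgroupOf K).index := by
      rw [← relIndex_top_right, ← hsup, relIndex_sup_right]
      rfl
    have hcard : Nat.card N = K.index * Nat.card (N.subgroupOf K) := by
      have h3 := N.card_mul_index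
      have h4 := K.card_mul_index
      have h5 := (N.subgroupOf K).card_mul_index
      have h6 : 0 < N.index := Nat.pos_of_ne_zero index_ne_zero_of_finite
      apply Nat.eq_of_mul_eq_mul_right h6
      rw [h3, ← h4, ← h5, hidx]
      ring
    have hsimple : IsSimpleGroup N := by
      have hnt : Nontrivial N := (nontrivial_iff_ne_bot N).2 hNb
      refine { eq_bot_or_eq_top_of_normal := fun M hM => ?_ }
      by_cases hrM : r ∣ Nat.card M
      · right
        -- every element of `N` of order dividing `r` lies in `M`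
        have hall : ∀ y : N, y ^ r = 1 → y ∈ M := by
          intro y hy
          have h3 : ¬ r ∣ M.index := fun hd => h2 (by
            refine Dvd.dvd.trans ?_ (card_subgroup_dvd_card N)
            rw [← M.card_mul_index, pow_two]
            exact Nat.mul_dvd_mul hrM hd)
          have h4 : (y : N ⧸ M) ^ r = 1 := by rw [← QuotientGroup.mk_pow, hy, QuotientGroup.mk_one]
          have h5 : orderOf (y : N ⧸ M) ∣ M.index := orderOf_dvd_natCard _
          rcases (Nat.dvd_prime hr).1 (orderOf_dvd_of_pow_eq_one h4) with h6 | h6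
          · exact (QuotientGroup.eq_one_iff y).1 (orderOf_eq_one_iff.1 h6)
          · exact absurd (h6 ▸ h5) h3
        have hcore : (M.map N.subtype).normalCore = N := by
          refine (hmin _ inferInstance ((normalCore_le _).trans (map_subtype_le _))).resolve_left fun h => hRb ?_
          rw [eq_bot_iff, ← h]
          intro y hy b
          refine ⟨⟨b * y * b⁻¹, hNn.conj_mem y (hRN hy) b⟩, hall _ (Subtype.ext ?_), rfl⟩
          change (b * y * b⁻¹) ^ r = 1
          rw [conj_pow, hRpow y hy, mul_one, mul_inv_cancel]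
        rw [eq_top_iff]
        intro y _
        have h3 : (y : X) ∈ M.map N.subtype := normalCore_le _ (by rw [hcore]; exact y.2)
        obtain ⟨z, hz, hzy⟩ := h3
        have h4 : z = y := Subtype.ext hzy
        exact h4 ▸ hz
      · left
        have h3 : M ≤ pPrimeCore r N := Lib.Cores.le_pPrimeCore hM ((Nat.coprime_comm.1 (hr.coprime_iff_not_dvd.2 hrM)))
        have hch := Lib.Cores.pPrimeCore_characteristic (G := N) r
        rcases hmin ((pPrimeCore r N).map N.subtype) inferInstance (map_subtype_le _) with h4 | h4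
        · rw [map_eq_bot_iff_of_injective _ N.subtype_injective] at h4
          rw [eq_bot_iff, ← h4]
          exact h3
        · exfalso
          have h5 := Lib.Cores.pPrimeCore_coprime (G := N) r
          rw [← card_map_of_injective N.subtype_injective, h4] at h5
          have h6 : r ∣ Nat.card N := hR ▸ card_dvd_of_le hRN
          exact hr.one_lt.ne' (Nat.eq_one_of_dvd_coprimes h5 h6 dvd_rfl)
    refine ⟨N, hNn, hsimple, fun hc => ?_, hi, hidx ▸ hi, hcard⟩
    have hn : (R.subgroupOf N).Normal := ⟨fun a ha b => by rw [hc b a, mul_inv_cancel_right]; exact ha⟩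
    rcases hsimple.eq_bot_or_eq_top_of_normal _ hn with h3 | h3
    · rw [subgroupOf_eq_bot] at h3
      exact hRb (h3.eq_bot_of_le hRN)
    · rw [subgroupOf_eq_top] at h3
      have h4 : Nat.card N ≤ r := hR ▸ card_le_of_le h3
      have h5 := (N.subgroupOf K).card_mul_index
      have h6 := Nat.le_of_dvd (by norm_num) hi
      have h7 : 0 < K.index := Nat.pos_of_ne_zero index_ne_zero_of_finite
      have h8 : Nat.card (N.subgroupOf K) ≤ Nat.card N := by rw [hcard]; exact Nat.le_mul_of_pos_left _ h7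
      have h9 : Nat.card (N.subgroupOf K) * (N.subgroupOf K).index ≤ r * 2 := Nat.mul_le_mul (h8.trans h4) h6
      omega

end Cfsg.Agent.BMx.Abs
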