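import Cfsg.Agent.BMx.AbsCore
import Cfsg.Agent.OddOrderCharacters.Wielandt
import Cfsg.Agent.OddOrderLocal.FrobAct
import Cfsg.Agent.H968.TwoM22Fact

/-!
# The elementary abelian case (helper77, for S5527)

* `pow_eight` : a 2-element of `GL_8(2)` has order at most 8;
* `CaseA.dvd_of_frob` : a Frobenius group `r : s` with fixed-point-free kernel forces `s ∣ k`;
* `CaseA.not_twelve` : a Sylow 3-subgroup of `L_3(3)` has fixed points on a group `2 ^ 12`.
-/

set_option autoImplicit false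
set_option linter.unusedSectionVars false
set_option linter.style.haveILetI false

namespace Cfsg.Agent.BMx.Abs

open Subgroup

theorem pow_eight {n : Type} [Fintype n] [DecidableEq n] [Nonempty n] (hn : Fintype.card n = 2 ^ 3)
    (A : GL n (ZMod 2)) (h : A ^ 2 ^ 4 = 1) : A ^ 2 ^ 3 = 1 := by
  have hc : Commute (A : Matrix n n (ZMod 2)) 1 := Commute.one_right _
  have h16 : ((A : Matrix n n (ZMod 2)) - 1) ^ 2 ^ 4 = 0 := by
    rw [sub_pow_char_pow_of_commute 2 4 hc, one_pow, sub_eq_zero, ← Units.val_pow_eq_pow_val, h, Units.val_one]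
  have h1 := Matrix.isNilpotent_charpoly_sub_pow_of_isNilpotent (M := (A : Matrix n n (ZMod 2)) - 1) ⟨_, h16⟩
  have h3 := h1.eq_zero
  rw [sub_eq_zero, hn] at h3
  have h4 := Matrix.aeval_self_charpoly ((A : Matrix n n (ZMod 2)) - 1)
  rw [h3, map_pow, Polynomial.aeval_X, sub_pow_char_pow_of_commute 2 3 hc, one_pow, sub_eq_zero,
    ← Units.val_pow_eq_pow_val] at h4
  exact Units.ext h4

variable {X : Type} [Group X] [Finite X]

/-- Frobenius action -/
theorem CaseA.dvd_of_frob {K N : Subgroup X} {q k : ℕ} (h : CaseA K N q k) {R : Subgroup X} {r : ℕ} (hr : r.Prime)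
    (hR : Nat.card R = r) (hN : normalizer (R : Set X) ≤ K) {g : X} {s : ℕ} (hs : s.Prime) (hg : orderOf g = s)
    (hgR : g ∈ normalizer (R : Set X)) (hfr : ∀ x ∈ R, g * x = x * g → x = 1) : s ∣ k := by
  have hNn := h.normal
  have hfq : Fact q.Prime := ⟨h.prime⟩
  have hfr' : Fact r.Prime := ⟨hr⟩
  have hqr : ¬ q ∣ Nat.card R := by
    rw [hR]
    intro hd
    obtain rfl := (Nat.prime_dvd_prime_iff_eq h.prime hr).1 hd
    have h1 := h.modEq (IsPGroup.of_card (n := 1) (by rw [hR, pow_one])) hN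
    have h2 : q ∣ 1 := (h1.dvd_iff dvd_rfl).1 (dvd_pow_self q h.pos.ne')
    exact hr.one_lt.ne' (Nat.dvd_one.1 h2)
  letI : CommGroup N := { (inferInstance : Group N) with mul_comm := fun a b => Subtype.ext (h.comm a a.2 b b.2) }
  have hle : zpowers g ≤ normalizer (R : Set X) := zpowers_le.2 hgR
  have h1 := (OddOrderLocal.FrobAct.card_eq_of_elementary (K := R) (R := zpowers g) (V := N) q
    (fun v => Subtype.ext (h.pow v v.2)) hqr ((MulAut.conjNormal (H := N)).comp R.subtype)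
    ((MulAut.conjNormal (H := N)).comp (zpowers g).subtype) (R.normalizerMonoidHom.comp (inclusion hle))
    (fun a b v => Subtype.ext (by
      change (a : X) * (b * v * (b : X)⁻¹) * (a : X)⁻¹ =
        (a * b * (a : X)⁻¹) * (a * v * (a : X)⁻¹) * ((a : X) * b * (a : X)⁻¹)⁻¹
      group))
    (fun v hv => Subtype.ext (by
      have h2 : (v : X) ∈ N ⊓ K := ⟨v.2, hN (cent_le_norm R fun a ha => by
        have h3 := congrArg Subtype.val (hv ⟨a, ha⟩)
        exact mul_inv_eq_iff_eq_mul.1 h3)⟩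
      rwa [h.disj, mem_bot] at h2))
    (fun a ha b hb => Subtype.ext (by
      have h2 : (a : X) * b * (a : X)⁻¹ = b := congrArg Subtype.val hb
      have h3 : Commute (a : X) b := mul_inv_eq_iff_eq_mul.1 h2
      have h4 : zpowers (a : X) = zpowers g := by
        apply eq_of_le_of_card_ge (zpowers_le.2 a.2)
        have h5 : orderOf a ∣ s := by rw [← hg, ← Nat.card_zpowers g]; exact _root_.orderOf_dvd_natCard a
        rcases (Nat.dvd_prime hs).1 h5 with h6 | h6
        · exact absurd (orderOf_eq_one_iff.1 h6) ha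
        · rw [Nat.card_zpowers, Nat.card_zpowers, orderOf_coe, h6, hg]
      have h7 : g ∈ zpowers (a : X) := by rw [h4]; exact mem_zpowers g
      obtain ⟨n, hn⟩ := h7
      refine hfr b b.2 ?_
      rw [← hn]
      exact (h3.zpow_left n).eq))).1
  rw [Nat.card_zpowers, hg, h.card] at h1
  have h2 : Nat.card (OddOrderLocal.FrobAct.fixedPts ((MulAut.conjNormal (H := N)).comp (zpowers g).subtype)) ∣
      q ^ k := by
    rw [← h.card]
    exact card_subgroup_dvd_card _
  obtain ⟨j, -, hj⟩ := (Nat.dvd_prime_pow h.prime).1 h2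
  rw [hj, ← pow_mul] at h1
  exact ⟨j, by rw [Nat.pow_right_injective h.prime.two_le h1, mul_comm]⟩

/-- conjugate elements have the same number of fixed points on a normal subgroup -/
theorem card_cent_conj (N : Subgroup X) [hN : N.Normal] {y e : X} (h : IsConj y e) :
    Nat.card ↥(N ⊓ centralizer (zpowers e : Set X)) = Nat.card ↥(N ⊓ centralizer (zpowers y : Set X)) := by
  obtain ⟨c, rfl⟩ := isConj_iff.1 h
  have key : ∀ (u v : X), v ∈ centralizer (zpowers u : Set X) ↔ u * v = v * u := by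
    intro u v
    constructor
    · exact fun hv => hv u (mem_zpowers u)
    · rintro hv _ ⟨n, rfl⟩
      exact ((show Commute u v from hv).zpow_left n).eq
  refine Nat.card_congr
    { toFun := fun v => ⟨c⁻¹ * v.1 * c⁻¹⁻¹, hN.conj_mem _ v.2.1 _, (key _ _).2 ?_⟩
      invFun := fun v => ⟨c * v.1 * c⁻¹, hN.conj_mem _ v.2.1 _, (key _ _).2 ?_⟩
      left_inv := fun v => Subtype.ext (by simp only; group)
      right_inv := fun v => Subtype.ext (by simp only; group) }
  · have h1 := (key _ _).1 v.2.2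
    calc y * (c⁻¹ * v.1 * c⁻¹⁻¹) = c⁻¹ * (c * y * c⁻¹ * v.1) * c := by group
      _ = _ := by rw [h1]; group
  · have h1 := (key _ _).1 v.2.2
    calc c * y * c⁻¹ * (c * v.1 * c⁻¹) = c * (y * v.1) * c⁻¹ := by group
      _ = _ := by rw [h1]; group

/-- Wielandt's formula for a group `3 ^ 2` -/
theorem wiel {N E : Subgroup X} [N.Normal] (hsolv : Group.IsSolvable N) (h3N : ¬ 3 ∣ Nat.card N)
    (hE : Nat.card E = 9) (h3 : ∀ e ∈ E, e ^ 3 = 1) {c : ℕ}
    (hc : ∀ e ∈ E, e ≠ 1 → Nat.card ↥(N ⊓ centralizer (zpowers e : Set X)) = c) :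
    Nat.card N * c ^ 24 = Nat.card ↥(N ⊓ centralizer (E : Set X)) ^ 18 * Nat.card N ^ 7 := by
  classical
  have : Fintype E := Fintype.ofFinite E
  have hcE : Fintype.card E = 9 := by rw [← Nat.card_eq_fintype_card, hE]
  have h := OddOrderCharacters.Wielandt.wielandt E N (by rw [normalizer_eq_top]; exact le_top)
    (by rw [hE]; exact (Nat.Coprime.pow_left 2 ((Nat.Prime.coprime_iff_not_dvd Nat.prime_three).2 h3N))) hsolv
    (I := E) (J := Fin 2 ⊕ Fin 7) (fun e => zpowers (e : X)) (Sum.elim (fun _ => E) fun _ => ⊥)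
    (fun e => zpowers_le.2 e.2) (by rintro (j | j); exacts [le_rfl, bot_le]) (by
      intro f
      by_cases hf1 : f = 1
      · subst hf1
        rw [Nat.card_congr (Equiv.subtypeUnivEquiv fun i => one_mem _),
          Nat.card_congr (Equiv.subtypeUnivEquiv fun i => one_mem _), hE]
        simp
      by_cases hfE : f ∈ E
      · have h1 : Nat.card {j : Fin 2 ⊕ Fin 7 // f ∈ Sum.elim (fun _ => E) (fun _ => (⊥ : Subgroup X)) j} = 2 := by
          rw [Nat.card_eq_fintype_card, Fintype.card_subtype]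
          have h2 : (Finset.univ.filter fun j : Fin 2 ⊕ Fin 7 =>
              f ∈ Sum.elim (fun _ => E) (fun _ => (⊥ : Subgroup X)) j) = {Sum.inl 0, Sum.inl 1} := by
            ext j
            rcases j with j | j
            · fin_cases j <;> simp [hfE]
            · simp [hf1]
          rw [h2]
          rfl
        rw [h1, Nat.card_eq_fintype_card, Fintype.card_subtype]
        have hf3 := h3 f hfE
        have h2 : (Finset.univ.filter fun i : E => f ∈ zpowers (i : X)) = {⟨f, hfE⟩, ⟨f, hfE⟩⁻¹} := by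
          ext i
          simp only [Finset.mem_filter, Finset.mem_univ, true_and, Finset.mem_insert, Finset.mem_singleton]
          constructor
          · intro hi
            have hi3 := h3 i i.2
            have hi1 : (i : X) ≠ 1 := fun h4 => hf1 (by rw [h4, zpowers_one_eq_bot, mem_bot] at hi; exact hi)
            rw [mem_zpowers_iff_mem_range_orderOf, orderOf_eq_prime hi3 hi1, Finset.mem_image] at hi
            obtain ⟨n, hn, hn2⟩ := hi
            rw [Finset.mem_range] at hn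
            interval_cases n
            · exact absurd (by rw [← hn2, pow_zero]) hf1
            · left
              exact Subtype.ext (by rw [pow_one] at hn2; exact hn2)
            · right
              apply Subtype.ext
              change (i : X) = f⁻¹
              rw [eq_inv_iff_mul_eq_one, ← hn2, ← pow_succ', hi3]
          · rintro (rfl | rfl)
            · exact mem_zpowers f
            · change f ∈ zpowers f⁻¹
              rw [zpowers_inv]
              exact mem_zpowers f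
        rw [h2, Finset.card_pair]
        intro h4
        have h5 : f = f⁻¹ := congrArg Subtype.val h4
        apply hf1
        have h6 : f * f = 1 := by nth_rewrite 2 [h5]; exact mul_inv_cancel f
        rw [pow_succ, pow_two, h6, one_mul] at hf3
        exact hf3
      · have h1 : IsEmpty {i : E // f ∈ zpowers (i : X)} := ⟨fun i => hfE (zpowers_le.2 i.1.2 i.2)⟩
        have h2 : IsEmpty {j : Fin 2 ⊕ Fin 7 // f ∈ Sum.elim (fun _ => E) (fun _ => (⊥ : Subgroup X)) j} :=
          ⟨by rintro ⟨j | j, hj⟩; exacts [hfE hj, hf1 (mem_bot.1 hj)]⟩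
        rw [Nat.card_of_isEmpty, Nat.card_of_isEmpty])
  have hb : N ⊓ centralizer ((⊥ : Subgroup X) : Set X) = N := by
    refine inf_eq_left.2 fun x _ y hy => ?_
    rw [mem_bot.1 hy, one_mul, mul_one]
  rw [Fintype.prod_sum_type] at h
  simp only [Sum.elim_inl, Sum.elim_inr, Finset.prod_const, Finset.card_univ, Fintype.card_fin, hb, card_bot, pow_one,
    hE] at h
  rw [← Finset.mul_prod_erase Finset.univ _ (Finset.mem_univ (1 : E))] at h
  have h1 : ∏ e ∈ Finset.univ.erase (1 : E), Nat.card ↥(N ⊓ centralizer (zpowers (e : X) : Set X)) ^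
      Nat.card (zpowers (e : X)) = c ^ 24 := by
    rw [Finset.prod_congr rfl (g := fun _ => c ^ 3), Finset.prod_const, Finset.card_erase_of_mem (Finset.mem_univ _),
      Finset.card_univ, hcE, ← pow_mul]
    intro e he
    have he1 : (e : X) ≠ 1 := fun h4 => (Finset.mem_erase.1 he).1 (Subtype.ext h4)
    rw [hc e e.2 he1, Nat.card_zpowers, orderOf_eq_prime (h3 e e.2) he1]
  rw [h1, OneMemClass.coe_one, zpowers_one_eq_bot, hb, card_bot, pow_one, ← pow_mul] at h
  exact h

/-- the unipotent elements of `L_3(3)` -/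
def U33 (H : Type*) [Group H] : Prop := ∃ a b y : H, a ^ 3 = 1 ∧ b ^ 3 = 1 ∧ y ^ 3 = 1 ∧ y ≠ 1 ∧
  a * y = y * a ∧ b * y = y * b ∧ a * b = b * (a * y) ∧
  (∀ i < 3, ∀ j < 3, (i = 0 ∧ j = 0) ∨ IsConj y (a ^ i * y ^ j)) ∧
  (∀ i < 3, ∀ j < 3, (i = 0 ∧ j = 0) ∨ IsConj y (b ^ i * y ^ j))

theorem U33.map {H L : Type*} [Group H] [Group L] (f : H →* L) (hf : Function.Injective f) (h : U33 H) :
    ∃ a b y : L, a ∈ f.range ∧ b ∈ f.range ∧ y ∈ f.range ∧ a ^ 3 = 1 ∧ b ^ 3 = 1 ∧ y ^ 3 = 1 ∧ y ≠ 1 ∧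
      a * y = y * a ∧ b * y = y * b ∧ a * b = b * (a * y) ∧
      (∀ i < 3, ∀ j < 3, (i = 0 ∧ j = 0) ∨ IsConj y (a ^ i * y ^ j)) ∧
      (∀ i < 3, ∀ j < 3, (i = 0 ∧ j = 0) ∨ IsConj y (b ^ i * y ^ j)) := by
  obtain ⟨a, b, y, h1, h2, h3, h4, h5, h6, h7, h8, h9⟩ := h
  refine ⟨f a, f b, f y, ⟨a, rfl⟩, ⟨b, rfl⟩, ⟨y, rfl⟩, by rw [← map_pow, h1, map_one], by rw [← map_pow, h2, map_one],
    by rw [← map_pow, h3, map_one], fun h => h4 (hf (by rw [h, map_one])), by rw [← map_mul, ← map_mul, h5],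
    by rw [← map_mul, ← map_mul, h6], by rw [← map_mul, ← map_mul, ← map_mul, h7], fun i hi j hj => ?_,
    fun i hi j hj => ?_⟩
  · refine (h8 i hi j hj).imp id fun h => ?_
    rw [← map_pow, ← map_pow, ← map_mul]
    exact f.map_isConj h
  · refine (h9 i hi j hj).imp id fun h => ?_
    rw [← map_pow, ← map_pow, ← map_mul]
    exact f.map_isConj h

theorem U33.congr {H L : Type*} [Group H] [Group L] (e : H ≃* L) (h : U33 H) : U33 L := by
  obtain ⟨a, b, y, -, -, -, h⟩ := h.map e.toMonoidHom e.injective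
  exact ⟨a, b, y, h⟩

theorem CaseA.not_twelve {K N : Subgroup X} (h : CaseA K N 2 12) (hK : Nat.card K = 5616) (hU : U33 K)
    {P : Subgroup X} (hPK : P ≤ K) (hP : Nat.card P = 27) (hN : normalizer (P : Set X) ≤ K) : False := by
  have hNn := h.normal
  have hf3 : Fact (Nat.Prime 3) := ⟨Nat.prime_three⟩
  obtain ⟨a, b, y, ha, hb, hy, ha3, hb3, hy3, hy1, hay, hby, hab, hca, hcb⟩ := hU.map K.subtype K.subtype_injective
  rw [range_subtype] at ha hb hy
  have hsolv : Group.IsSolvable N := Group.isSolvable_of_comm fun u v => Subtype.ext (h.comm u u.2 v v.2)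
  have h3N : ¬ 3 ∣ Nat.card N := by rw [h.card]; norm_num
  have hsub : ∀ A : Subgroup X, ∃ n, Nat.card ↥(N ⊓ A) = 2 ^ n := by
    intro A
    have h1 : Nat.card ↥(N ⊓ A) ∣ 2 ^ 12 := by rw [← h.card]; exact card_dvd_of_le inf_le_left
    obtain ⟨n, -, hn⟩ := (Nat.dvd_prime_pow Nat.prime_two).1 h1
    exact ⟨n, hn⟩
  obtain ⟨c, hc⟩ := hsub (centralizer (zpowers y : Set X))
  -- the two groups of order 9
  have key : ∀ a : X, a ^ 3 = 1 → a * y = y * a →
      (∀ i < 3, ∀ j < 3, (i = 0 ∧ j = 0) ∨ IsConj y (a ^ i * y ^ j)) →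
      ∃ (E : Subgroup X) (e : ℕ), Nat.card E = 9 ∧ (∀ x, x ∈ E ↔ ∃ i < 3, ∃ j < 3, x = a ^ i * y ^ j) ∧
        Nat.card ↥(N ⊓ centralizer (E : Set X)) = 2 ^ e ∧ 4 * c = 3 * e + 12 := by
    intro a ha3 hay hca
    obtain ⟨E, hE9, hE⟩ := H968.TwoM22.exists_E ha3 hy3 hay fun i hi j hj h1 =>
      (hca i hi j hj).resolve_right fun h2 => hy1 (by rw [h1] at h2; exact isConj_one_left.1 h2)
    obtain ⟨e, he⟩ := hsub (centralizer (E : Set X))
    refine ⟨E, e, hE9, hE, he, ?_⟩
    have h1 := wiel (N := N) hsolv h3N hE9 (fun x hx => by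
      obtain ⟨i, -, j, -, rfl⟩ := (hE x).1 hx
      rw [((show Commute a y from hay).pow_pow i j).mul_pow, ← pow_mul, ← pow_mul, mul_comm i, mul_comm j, pow_mul,
        pow_mul, ha3, hy3, one_pow, one_pow, one_mul]) (c := 2 ^ c) (fun x hx hx1 => by
      obtain ⟨i, hi, j, hj, rfl⟩ := (hE x).1 hx
      rcases hca i hi j hj with ⟨rfl, rfl⟩ | h2
      · exact absurd (by rw [pow_zero, pow_zero, one_mul]) hx1
      · rw [card_cent_conj N h2, hc])
    rw [h.card, he, ← pow_mul, ← pow_mul, ← pow_mul, ← pow_add, ← pow_add] at h1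
    have h2 := Nat.pow_right_injective (le_refl 2) h1
    omega
  obtain ⟨E, e, hE9, hE, he, hce⟩ := key a ha3 hay hca
  obtain ⟨F, f, hF9, hF, hf, hcf⟩ := key b hb3 hby hcb
  have hmem : ∀ {u : X} {E : Subgroup X}, (∀ x, x ∈ E ↔ ∃ i < 3, ∃ j < 3, x = u ^ i * y ^ j) → u ∈ E ∧ y ∈ E :=
    fun hE => ⟨(hE _).2 ⟨1, by norm_num, 0, by norm_num, by rw [pow_one, pow_zero, mul_one]⟩,
      (hE _).2 ⟨0, by norm_num, 1, by norm_num, by rw [pow_one, pow_zero, one_mul]⟩⟩
  -- the group of order 27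
  have hEK : E ≤ K := fun x hx => by
    obtain ⟨i, -, j, -, rfl⟩ := (hE x).1 hx
    exact K.mul_mem (K.pow_mem ha i) (K.pow_mem hy j)
  have hbn : zpowers b ≤ normalizer (E : Set X) := by
    rw [← zpowers_inv, zpowers_le]
    apply mem_normalizer_fintype
    intro x hx
    obtain ⟨i, -, j, -, rfl⟩ := (hE x).1 hx
    have h1 : b⁻¹ * a * b⁻¹⁻¹ = a * y := by rw [inv_inv, mul_assoc, hab, inv_mul_cancel_left]
    have h2 : b⁻¹ * y * b⁻¹⁻¹ = y := by rw [inv_inv, mul_assoc, ← hby, inv_mul_cancel_left]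
    have h3 : b⁻¹ * (a ^ i * y ^ j) * b⁻¹⁻¹ = (b⁻¹ * a * b⁻¹⁻¹) ^ i * (b⁻¹ * y * b⁻¹⁻¹) ^ j := by
      rw [conj_pow, conj_pow]; group
    change b⁻¹ * (a ^ i * y ^ j) * b⁻¹⁻¹ ∈ E
    rw [h3, h1, h2]
    exact E.mul_mem (E.pow_mem (E.mul_mem (hmem hE).1 (hmem hE).2) i) (E.pow_mem (hmem hE).2 j)
  have hEp : IsPGroup 3 E := IsPGroup.of_card (n := 2) (by rw [hE9]; norm_num)
  have hbp : IsPGroup 3 (zpowers b) := by
    rintro ⟨_, n, rfl⟩
    refine ⟨1, Subtype.ext ?_⟩
    change (b ^ n) ^ 3 ^ 1 = 1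
    rw [pow_one, ← zpow_natCast, ← zpow_mul, mul_comm, zpow_mul, zpow_natCast, hb3, one_zpow]
  have hUp : IsPGroup 3 ↥(zpowers b ⊔ E) := hbp.to_sup_of_normal_right' hEp hbn
  have hUK : zpowers b ⊔ E ≤ K := sup_le (zpowers_le.2 hb) hEK
  have hU27 : Nat.card ↥(zpowers b ⊔ E) = Nat.card P := by
    obtain ⟨n, hn⟩ := IsPGroup.iff_card.1 hUp
    have h1 : 3 ^ n ∣ 5616 := by rw [← hn, ← hK]; exact card_dvd_of_le hUK
    have h2 : 9 ≤ 3 ^ n := by rw [← hn, ← hE9]; exact card_le_of_le le_sup_right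
    have h3 : n ≠ 2 := by
      rintro rfl
      have h4 : E = zpowers b ⊔ E := eq_of_le_of_card_ge le_sup_right (by rw [hn, hE9]; norm_num)
      have h5 : b ∈ E := by rw [h4]; exact mem_sup_left (mem_zpowers b)
      obtain ⟨i, -, j, -, h6⟩ := (hE b).1 h5
      have h7 : Commute a b := by
        rw [h6]
        exact ((Commute.refl a).pow_right i).mul_right ((show Commute a y from hay).pow_right j)
      rw [h7.eq, mul_right_inj, left_eq_mul] at hab
      exact hy1 hab
    have h4 : n < 4 := by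
      by_contra h5
      have h6 : 3 ^ 4 ∣ 5616 := (pow_dvd_pow 3 (by omega)).trans h1
      norm_num at h6
    have h5 : 2 ≤ n := by
      by_contra h5
      have h6 : 3 ^ n ≤ 3 ^ 1 := Nat.pow_le_pow_right (by norm_num) (by omega)
      omega
    obtain rfl : n = 3 := by omega
    rw [hn, hP]
    norm_num
  obtain ⟨k, -, hk⟩ := exists_conj hPK hUK (IsPGroup.of_card (p := 3) (n := 3) (by rw [hP]; norm_num)) hU27
    (by rw [hP, hK]; norm_num)
  have hdis : Disjoint (N ⊓ centralizer (E : Set X)) (N ⊓ centralizer (F : Set X)) := by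
    rw [disjoint_def]
    intro x hx1 hx2
    have h1 : zpowers b ⊔ E ≤ centralizer {x} := sup_le
      (zpowers_le.2 (mem_centralizer_singleton_iff.2 (hx2.2 b (hmem hF).1)))
      fun u hu => mem_centralizer_singleton_iff.2 (hx1.2 u hu)
    have h2 : k⁻¹ * x * k⁻¹⁻¹ ∈ N ⊓ K := by
      refine ⟨hNn.conj_mem x hx1.1 _, hN (cent_le_norm P fun u hu => ?_)⟩
      have h3 := mem_centralizer_singleton_iff.1 (h1 (hk u hu))
      calc u * (k⁻¹ * x * k⁻¹⁻¹) = k⁻¹ * (k * u * k⁻¹ * x) * k := by group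
        _ = _ := by rw [h3]; group
    rw [h.disj, mem_bot] at h2
    calc x = k * (k⁻¹ * x * k⁻¹⁻¹) * k⁻¹ := by group
      _ = 1 := by rw [h2]; group
  have hle : ∀ {E : Subgroup X}, y ∈ E → N ⊓ centralizer (E : Set X) ≤ N ⊓ centralizer (zpowers y : Set X) :=
    fun hy => inf_le_inf_left _ (centralizer_le (zpowers_le.2 hy))
  have hprod : 2 ^ e * 2 ^ f ≤ 2 ^ c := by
    rw [← he, ← hf, ← hc, ← Nat.card_prod]
    refine Nat.card_le_card_of_injective (fun p => ⟨p.1.1 * p.2.1, mul_mem (hle (hmem hE).2 p.1.2)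
      (hle (hmem hF).2 p.2.2)⟩) fun p p' hpp => mul_injective_of_disjoint hdis (congrArg Subtype.val hpp)
  rw [← pow_add, Nat.pow_le_pow_iff_right (by norm_num)] at hprod
  have hc3 : c = 3 := by omega
  have h1 := card_modEq_cent N (zpowers y) (p := 3)
    (IsPGroup.of_card (n := 1) (by rw [Nat.card_zpowers, orderOf_eq_prime hy3 hy1, pow_one]))
  rw [hc, hc3, h.card] at h1
  exact absurd h1 (by decide)

end Cfsg.Agent.BMx.Abs
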