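import Cfsg.Agent.BMx.AbsCore
import Cfsg.Agent.H940.EngData
import Cfsg.Agent.H968.TwoM22Fact
import Cfsg.Agent.ClassicalGeometry.PSL2Basic
import Cfsg.Prelude.Def_CaseTheorems
import Cfsg.Prelude.Def_Classical
import Cfsg.Prelude.Def_Sz
import Cfsg.Prelude.Def_Spor_Mathieu

/-!
# The sieve for proper subgroups of the Baby Monster (helper77, for S5527)

* `split` : the two cases with the numbers which survive the congruences;
* `CaseB.c55`, `m22_of_c55` : the rows in which the centralisers of the 5-elements are 5-groups;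
* `no_eighteen` : the centraliser of an element of order 3 of `M22` has no subgroup of order 18.
-/

set_option autoImplicit false
set_option linter.unusedSectionVars false
set_option linter.style.haveILetI false

namespace Cfsg.Agent.BMx.Abs

open Subgroup Cfsg Cfsg.Agent.OrdDiv Cfsg.Agent.H940.Eng Cfsg.Agent.H940.Eng.D

/-- what is used of a proper subgroup of the Baby Monster -/
structure Amb (X : Type) [Group X] : Prop where
  dvd : Nat.card X ∣ n_b
  ne : Nat.card X ≠ n_b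
  rank : PRankLE 2 14 X

def chkA (r p : ℕ) (L : List (ℕ × ℕ)) : Bool :=
  l_b.all fun x => (List.range (x.2 + 1)).all fun k =>
    k == 0 || (x.1 == 2 && Nat.blt 14 k) || x.1 ^ k % r != 1 % r || x.1 ^ k % p != 1 % p || L.contains (x.1, k)

def chkB (k r p : ℕ) (ds : List ℕ) (L : List (ℕ × ℕ)) : Bool :=
  o_b.all fun s => ds.all fun d =>
    s % d != 0 || (s / d) % r != 1 % r || (s / d) % p != 1 % p || s / d == 1 || n_b % (s / d * k) != 0 ||
      s / d * k == n_b || L.contains (s, d)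

variable {X : Type} [Group X] [Finite X]

theorem CaseA.le (hX : Amb X) {K N : Subgroup X} {q k : ℕ} (h : CaseA K N q k) :
    (∃ e, (q, e) ∈ l_b ∧ k ≤ e) ∧ (q = 2 → k ≤ 14) := by
  refine ⟨exists_pair v_b h.prime h.pos (by rw [← h.card]; exact (card_subgroup_dvd_card N).trans hX.dvd), ?_⟩
  rintro rfl
  have h1 := hX.rank N ⟨⟨fun a b => Subtype.ext (h.comm a a.2 b b.2)⟩⟩ h.pow
  rwa [h.card, Nat.pow_le_pow_iff_right (by norm_num)] at h1

theorem CaseA.mem (hX : Amb X) {K N : Subgroup X} {q k : ℕ} (h : CaseA K N q k) {r p : ℕ} (hr : q ^ k ≡ 1 [MOD r])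
    (hp : q ^ k ≡ 1 [MOD p]) {L : List (ℕ × ℕ)} (hc : chkA r p L = true) : (q, k) ∈ L := by
  obtain ⟨⟨e, he, hke⟩, h2⟩ := h.le hX
  have h3 := List.all_eq_true.1 (List.all_eq_true.1 hc _ he) k (List.mem_range.2 (by show k < e + 1; omega))
  simp only [Bool.or_eq_true, Bool.and_eq_true, beq_iff_eq, bne_iff_ne, Nat.blt_eq, List.contains_iff_mem] at h3
  rcases h3 with (((h3 | h3) | h3) | h3) | h3
  · exact absurd h3 h.pos.ne'
  · exact absurd (h2 h3.1) (not_le.2 h3.2)
  · exact absurd hr h3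
  · exact absurd hp h3
  · exact h3

theorem CaseB.mem (B : Base) (hX : Amb X) {K T : Subgroup X} (h : CaseB K T) (hK : K ≠ ⊤) {k r p : ℕ}
    (hk : Nat.card K = k) (hr : K.index ≡ 1 [MOD r]) (hp : K.index ≡ 1 [MOD p]) {ds : List ℕ}
    (hds : Nat.card (T.subgroupOf K) ∈ ds) {L : List (ℕ × ℕ)} (hc : chkB k r p ds L = true) :
    (Nat.card T, Nat.card (T.subgroupOf K)) ∈ L := by
  have h1 := ords_b B T h.simple h.nab ((card_subgroup_dvd_card T).trans hX.dvd)
  have h3 := List.all_eq_true.1 (List.all_eq_true.1 hc _ h1) _ hds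
  have hd : Nat.card T / Nat.card (T.subgroupOf K) = K.index := by
    rw [h.card, Nat.mul_div_cancel _ Nat.card_pos]
  have hXc : K.index * k = Nat.card X := by rw [← hk, K.index_mul_card]
  simp only [Bool.or_eq_true, beq_iff_eq, bne_iff_ne, List.contains_iff_mem, hd, hXc] at h3
  rcases h3 with (((((h3 | h3) | h3) | h3) | h3) | h3) | h3
  · exact absurd (by rw [h.card, Nat.mul_mod_left]) h3
  · exact absurd hr h3
  · exact absurd hp h3
  · exact absurd (index_eq_one.1 h3) hK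
  · exact absurd (Nat.mod_eq_zero_of_dvd hX.dvd) h3
  · exact absurd h3 hX.ne
  · exact h3

theorem CaseB.card_simple {K T : Subgroup X} (h : CaseB K T) (hs : IsSimpleGroup K) (h2 : 2 < Nat.card K) :
    K ≤ T ∧ Nat.card (T.subgroupOf K) = Nat.card K := by
  have := h.normal
  rcases hs.eq_bot_or_eq_top_of_normal (T.subgroupOf K) inferInstance with h1 | h1
  · have h3 := h.idx
    rw [h1, index_bot] at h3
    exact absurd (Nat.le_of_dvd (by norm_num) h3) (by omega)
  · exact ⟨subgroupOf_eq_top.1 h1, by rw [h1, card_top]⟩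

theorem CaseB.card_two {K T : Subgroup X} (h : CaseB K T) {k : ℕ} (hk : Nat.card K = 2 * k) :
    Nat.card (T.subgroupOf K) ∈ [2 * k, k] := by
  have h1 := (T.subgroupOf K).card_mul_index
  rw [hk] at h1
  rcases (Nat.dvd_prime Nat.prime_two).1 h.idx with h2 | h2 <;> rw [h2] at h1
  · simp only [List.mem_cons]; omega
  · simp only [List.mem_cons]; omega

/-! ### centralisers of 5-elements -/

theorem CaseB.c55 {K T : Subgroup X} (h : CaseB K T) {P : Subgroup X} (hPK : P ≤ K) (hP : Nat.card P = 5)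
    (hN : normalizer (P : Set X) ≤ K) (h25 : ¬ 25 ∣ Nat.card X)
    (hF : ∀ x ∈ K ⊓ T, ∀ y ∈ K ⊓ T, orderOf x = 5 → x * y = y * x → y ^ 5 = 1) :
    ∀ x : T, x ≠ 1 → (∃ k : ℕ, orderOf x = 5 ^ k) → IsPGroup 5 (centralizer ({x} : Set T)) := by
  have hT := h.normal
  have hf : Fact (Nat.Prime 5) := ⟨Nat.prime_five⟩
  rintro x hx1 ⟨k, hk⟩ y
  have hx5 : orderOf (x : X) = 5 := by
    rw [orderOf_coe]
    have h1 : 5 ^ k ∣ Nat.card X := by rw [← hk, ← orderOf_coe]; exact _root_.orderOf_dvd_natCard _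
    have h2 : k < 2 := by
      by_contra h2
      exact h25 ((pow_dvd_pow 5 (not_lt.1 h2)).trans h1)
    have h3 : k ≠ 0 := by
      rintro rfl
      exact hx1 (orderOf_eq_one_iff.1 hk)
    obtain rfl : k = 1 := by omega
    exact hk
  obtain ⟨g, -, hg⟩ := exists_conj (K := ⊤) (P := zpowers (x : X)) (Q := P) (p := 5) le_top le_top
    (IsPGroup.of_card (n := 1) (by rw [Nat.card_zpowers, hx5, pow_one])) (by rw [Nat.card_zpowers, hx5, hP])
    (by rw [Nat.card_zpowers, hx5, card_top]; exact h25)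
  have h1 := hg x (mem_zpowers _)
  have h2 : orderOf (g * x * g⁻¹) = 5 :=
    (orderOf_injective (MulAut.conj g).toMonoidHom (MulAut.conj g).injective (x : X)).trans hx5
  have h3 : zpowers (g * x * g⁻¹) = P := eq_of_le_of_card_ge (zpowers_le.2 h1) (by rw [Nat.card_zpowers, h2, hP])
  have h4 : (x : X) * (y : T) = (y : T) * x := congrArg Subtype.val (mem_centralizer_singleton_iff.1 y.2).symm
  have h5 : g * x * g⁻¹ * (g * (y : T) * g⁻¹) = g * (y : T) * g⁻¹ * (g * x * g⁻¹) := by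
    calc g * x * g⁻¹ * (g * (y : T) * g⁻¹) = g * (x * (y : T)) * g⁻¹ := by group
      _ = _ := by rw [h4]; group
  have h6 : g * (y : T) * g⁻¹ ∈ K := by
    refine hN (cent_le_norm P ?_)
    rw [← h3]
    rintro _ ⟨n, rfl⟩
    exact ((show Commute _ _ from h5).zpow_left n).eq
  have h7 := hF _ ⟨hPK h1, hT.conj_mem _ x.2 g⟩ _ ⟨h6, hT.conj_mem _ (y : T).2 g⟩ h2 h5
  rw [conj_pow, mul_inv_eq_one, mul_eq_left] at h7
  exact ⟨1, Subtype.ext (Subtype.ext (by rw [pow_one]; exact h7))⟩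

/-- the statement S4368 -/
def H55 : Prop := ∀ (S : Type) [Group S] [Finite S] [IsSimpleGroup S], ¬ IsMulCommutative S →
  (5 ∣ Nat.card S ∧ ∀ x : S, x ≠ 1 → (∃ k : ℕ, orderOf x = 5 ^ k) →
    IsPGroup 5 (Subgroup.centralizer ({x} : Set S))) →
    (∃ (F : Type) (_ : Field F) (_ : Fintype F), ((∃ f : ℕ, 1 ≤ f ∧ Fintype.card F = 5 ^ f) ∨
        (∃ f : ℕ, (Fintype.card F).Prime ∧ (Fintype.card F = 2 * 5 ^ f + 1 ∨ Fintype.card F + 1 = 2 * 5 ^ f)) ∨
        Fintype.card F = 9 ∨ Fintype.card F = 49) ∧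
      Nonempty (S ≃* Matrix.ProjectiveSpecialLinearGroup (Fin 2) F)) ∨
    (∃ (F : Type) (_ : Field F) (_ : Fintype F), Fintype.card F = 4 ∧
      Nonempty (S ≃* Matrix.ProjectiveSpecialLinearGroup (Fin 3) F)) ∨
    (Cfsg.Lie.IsoSuzuki S ∧ (Nat.card S = 29120 ∨ Nat.card S = 32537600)) ∨
    (∃ (F : Type) (_ : Field F) (_ : Fintype F), Fintype.card F = 3 ∧ Nonempty (S ≃* Cfsg.PSp 2 F)) ∨
    (∃ (F : Type) (_ : Field F) (_ : Fintype F), Fintype.card F = 9 ∧ Nonempty (S ≃* Cfsg.PSU 4 F 3)) ∨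
    (∃ (F : Type) (_ : Field F) (_ : Fintype F), Fintype.card F = 7 ∧ Nonempty (S ≃* Cfsg.PSp 2 F)) ∨
    Nonempty (S ≃* alternatingGroup (Fin 7)) ∨ Nonempty (S ≃* Cfsg.Spor.M11) ∨ Nonempty (S ≃* Cfsg.Spor.M22)

/-- the four orders -/
def l4 : List ℕ := [10200960, 13685760, 443520, 9196830720]

set_option maxRecDepth 100000 in
theorem chk_psl : ((cand l_b n_b fPSL).all fun x => !(l4.contains (ordN (.psl x.1 x.2)))) = true := by decide +kernel

theorem m22_of_c55 (B : Base) (H : H55) {S : Type} [Group S] [Finite S] (hs : IsSimpleGroup S)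
    (hna : ¬ ∀ a b : S, a * b = b * a) (hc : Nat.card S ∈ l4)
    (h5 : ∀ x : S, x ≠ 1 → (∃ k : ℕ, orderOf x = 5 ^ k) → IsPGroup 5 (centralizer ({x} : Set S))) :
    Nonempty (S ≃* Spor.M22) ∧ Nat.card S = 443520 := by
  have hd : 5 ∣ Nat.card S ∧ Nat.card S ∣ n_b ∧ 400000 < Nat.card S := by
    have h : ∀ n ∈ l4, 5 ∣ n ∧ n ∣ n_b ∧ 400000 < n := by decide +kernel
    exact h _ hc
  have hpsl : ∀ (F : Type) [Field F] [Fintype F] (n : ℕ), 2 ≤ n → (n = 2 → 4 ≤ Fintype.card F) →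
      Nonempty (S ≃* Matrix.ProjectiveSpecialLinearGroup (Fin n) F) → False := by
    rintro F _ _ n hn hn2 ⟨e⟩
    have h1 := Nat.card_congr e.toEquiv
    obtain ⟨h2, h3⟩ := psl_mem v_b hn hn2 (h1 ▸ hd.2.1)
    have h4 := List.all_eq_true.1 chk_psl _ h2
    rw [Bool.not_eq_true', ← Bool.not_eq_true, List.contains_iff_mem] at h4
    exact h4 (by rw [← h3, ← h1]; exact hc)
  rcases H S (fun h => hna h.is_comm.comm) ⟨hd.1, h5⟩ with ⟨F, _, _, -, he⟩ | ⟨F, _, _, -, he⟩ | ⟨-, h | h⟩ |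
    ⟨F, _, _, hF, ⟨e⟩⟩ | ⟨F, _, _, hF, ⟨e⟩⟩ | ⟨F, _, _, hF, ⟨e⟩⟩ | ⟨⟨e⟩⟩ | he | he
  · exfalso
    by_cases h4 : 4 ≤ Fintype.card F
    · exact hpsl F 2 le_rfl (fun _ => h4) he
    · obtain ⟨e⟩ := he
      have h1 := ClassicalGeometry.PSL2Basic.card_PSL2_div F
      rw [← Nat.card_congr e.toEquiv] at h1
      have h2 := hd.2.2
      rw [h1] at h2
      have h3 : Fintype.card F < 4 := not_le.1 h4
      generalize Fintype.card F = q at h2 h3
      interval_cases q <;> simp at h2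
  · exact (hpsl F 3 (by norm_num) (by norm_num) he).elim
  · rw [h] at hc
    exact absurd hc (by decide +kernel)
  · rw [h] at hc
    exact absurd hc (by decide +kernel)
  · have h1 := Nat.card_congr e.toEquiv
    have h2 := (psp_mem v_b le_rfl (fun _ => hF.ge) (h1 ▸ hd.2.1)).2
    rw [h1, h2, hF] at hc
    exact absurd hc (by decide +kernel)
  · have h1 := Nat.card_congr e.toEquiv
    have h2 := (psu_mem v_b (q := 3) hF (by norm_num) (by norm_num) (h1 ▸ hd.2.1)).2
    rw [h1, h2] at hc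
    exact absurd hc (by decide +kernel)
  · have h1 := Nat.card_congr e.toEquiv
    have h2 := (psp_mem v_b le_rfl (fun _ => by omega) (h1 ▸ hd.2.1)).2
    rw [h1, h2, hF] at hc
    exact absurd hc (by decide +kernel)
  · have h1 := Nat.card_congr e.toEquiv
    rw [nat_card_alternatingGroup, Nat.card_fin] at h1
    rw [h1] at hc
    exact absurd hc (by decide +kernel)
  · have h1 := B.table.spor S (.m11, 7920) (by simp [spor]) he
    rw [h1] at hc
    exact absurd hc (by decide +kernel)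
  · exact ⟨he, B.table.spor S (.m22, 443520) (by simp [spor]) he⟩

/-- in `M22` the centraliser of an element of order 3 has no subgroup of order 18 -/
theorem no_eighteen {T : Type} [Group T] [Finite T] (H : H968.TwoM22.Three T) {x : T} (hx : orderOf x = 3)
    {D : Subgroup T} (hD : D ≤ centralizer {x}) (h18 : Nat.card D = 18) : False := by
  have hf : Fact (Nat.Prime 3) := ⟨Nat.prime_three⟩
  obtain ⟨s, t, g, hs, ht, hst, hne, hC, hc, hgs, hgt⟩ := H.three
  have hs3 : s ^ 3 = 1 := by rw [← hs]; exact pow_orderOf_eq_one s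
  have ht3 : t ^ 3 = 1 := by rw [← ht]; exact pow_orderOf_eq_one t
  obtain ⟨E, hE9, hE⟩ := H968.TwoM22.exists_E hs3 ht3 hst hne
  obtain ⟨c, hcx⟩ := isConj_iff.1 (hc x hx).symm
  let D' : Subgroup T := D.map (MulAut.conj c).toMonoidHom
  have hD' : D' ≤ centralizer {s} := by
    rintro _ ⟨d, hd, rfl⟩
    rw [mem_centralizer_singleton_iff, ← hcx]
    have h1 := mem_centralizer_singleton_iff.1 (hD hd)
    change c * d * c⁻¹ * (c * x * c⁻¹) = c * x * c⁻¹ * (c * d * c⁻¹)
    calc c * d * c⁻¹ * (c * x * c⁻¹) = c * (d * x) * c⁻¹ := by group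
      _ = _ := by rw [h1]; group
  have h18' : Nat.card D' = 18 := (card_map_of_injective (MulAut.conj c).injective).trans h18
  obtain ⟨Q, hQ⟩ := Sylow.exists_subgroup_card_pow_prime (G := D') 3 (n := 2) (by rw [h18']; norm_num)
  have hi1 : (D'.subgroupOf (centralizer {s})).index = 2 := by
    have h1 := (D'.subgroupOf (centralizer {s})).card_mul_index
    rw [Nat.card_congr (subgroupOfEquivOfLe hD').toEquiv, h18', hC] at h1
    omega
  have hi2 : Q.index = 2 := by
    have h1 := Q.card_mul_index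
    rw [hQ, h18'] at h1
    omega
  have hn1 := normal_of_index_eq_two hi1
  have hn2 := normal_of_index_eq_two hi2
  have hall : ∀ u : T, u * s = s * u → u ^ 3 = 1 → u ∈ Q.map D'.subtype := by
    intro u hu hu3
    have h1 : u ∈ D' := mem_of_index (M := D'.subgroupOf (centralizer {s}))
      (x := ⟨u, mem_centralizer_singleton_iff.2 hu⟩) (by rw [hi1]) (n := 3) (by decide) (Subtype.ext hu3)
    exact ⟨⟨u, h1⟩, mem_of_index (M := Q) (x := ⟨u, h1⟩) (by rw [hi2]) (n := 3) (by decide) (Subtype.ext hu3), rfl⟩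
  have hEQ : E = Q.map D'.subtype := by
    refine eq_of_le_of_card_ge (fun u hu => ?_) (by rw [card_map_of_injective D'.subtype_injective, hQ, hE9]; norm_num)
    obtain ⟨i, -, j, -, rfl⟩ := (hE u).1 hu
    have hc' : Commute s t := hst
    refine hall _ (((Commute.refl s).pow_left i).mul_left (hc'.symm.pow_left j)).eq ?_
    rw [(hc'.pow_pow i j).mul_pow, ← pow_mul, ← pow_mul, mul_comm i, mul_comm j, pow_mul, pow_mul, hs3, ht3, one_pow,
      one_pow, one_mul]
  have hmem : g * t * g⁻¹ ∈ E := by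
    rw [hEQ]
    refine hall _ ?_ (by rw [conj_pow, ht3, mul_one, mul_inv_cancel])
    have hg : Commute g s := hgs
    exact ((hg.mul_left (show Commute s t from hst).symm).mul_left hg.inv_left).eq
  obtain ⟨i, hi, j, hj, hij⟩ := (hE _).1 hmem
  exact hgt i hi j hj (mul_inv_eq_iff_eq_mul.1 hij)

end Cfsg.Agent.BMx.Abs
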