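import Cfsg.Agent.BMx.PresLib
import Cfsg.Agent.BMx.PresCert
import Cfsg.Agent.BMx.AbsCore
import Cfsg.Agent.SporadicB.AtlasPres.M11Rec
import Cfsg.Agent.TwoGenCore.IsoMEleven

/-!
# `M_11` by relators (helper78, for S5527)
-/

set_option autoImplicit false

namespace Cfsg.Agent.BMx.Pres

open Subgroup Cfsg.Agent.Lib.CosetFacts Cfsg.Agent.SporadicB.AtlasPres.M11Rec

/-- The relations of `M_11`: `x` has order `11`, `y` order `5`, `t` order `4`. -/
structure RelM {G : Type*} [Group G] (x y t : G) : Prop where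
  r1 : x ^ 2 * y * x = y
  r2 : y ^ 2 * x ^ 3 = x * y ^ 2
  r3 : t ^ 4 = 1
  r4 : t * y = y ^ 2 * t
  r5 : (x * t) ^ 3 = 1

namespace RelM

variable {G : Type*} [Group G] {x y t : G}

theorem prod {H : Type*} [Group H] {a b c : H} (k : RelM a b c) (h : RelM x y t) :
    RelM ((a, x) : H × G) (b, y) (c, t) :=
  ⟨Prod.ext k.r1 h.r1, Prod.ext k.r2 h.r2, Prod.ext k.r3 h.r3, Prod.ext k.r4 h.r4, Prod.ext k.r5 h.r5⟩

theorem sat (h : RelM x y t) : ∀ r ∈ relsM, prodL (l6 x y t) r = 1 := by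
  intro r hr
  simp only [relsM, List.mem_cons, List.not_mem_nil, or_false] at hr
  rcases hr with rfl | rfl | rfl | rfl | rfl | rfl | rfl | rfl <;>
    simp only [prodL, l6_1, l6_2, l6_3, l6_4, l6_5, l6_6, mul_one]
  · rw [← mul_inv_eq_one.2 h.r1]; simp only [pow_succ, pow_zero, one_mul, mul_assoc]
  · rw [← mul_inv_eq_one.2 h.r2]; simp only [pow_succ, pow_zero, one_mul, mul_assoc, mul_inv_rev]
  · rw [← h.r3]; simp only [pow_succ, pow_zero, one_mul, mul_assoc]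
  · rw [← mul_inv_eq_one.2 h.r4]; simp only [pow_succ, pow_zero, one_mul, mul_assoc, mul_inv_rev]
  · rw [← h.r5]; simp only [pow_succ, pow_zero, one_mul, mul_assoc]
  · exact mul_inv_cancel x
  · exact mul_inv_cancel y
  · exact mul_inv_cancel t

theorem x_pow (h : RelM x y t) : x ^ 11 = 1 :=
  pow6 certMX relsM certMX_check rfl rfl h.sat certMX_loop0

theorem bound (h : RelM x y t) :
    Finite (closure {x, y, t} : Subgroup G) ∧ Nat.card (closure {x, y, t} : Subgroup G) ≤ 720 * 11 :=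
  bound6 certMK relsM certMK_check certMK_close rfl rfl h.sat (by norm_num) h.x_pow

end RelM

/-! ### the model on eleven points -/

def pxM : Equiv.Perm (Fin 11) :=
  ⟨![4, 2, 10, 1, 8, 9, 7, 5, 6, 3, 0], ![10, 3, 1, 9, 0, 7, 8, 6, 4, 5, 2], by decide, by decide⟩
def pyM : Equiv.Perm (Fin 11) :=
  ⟨![8, 1, 9, 10, 0, 6, 3, 5, 2, 4, 7], ![4, 1, 8, 6, 9, 7, 5, 10, 0, 2, 3], by decide, by decide⟩
def ptM : Equiv.Perm (Fin 11) :=
  ⟨![2, 1, 8, 7, 0, 5, 3, 10, 4, 9, 6], ![4, 1, 0, 6, 8, 5, 10, 3, 2, 9, 7], by decide, by decide⟩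

theorem pxM_mem : pxM ∈ K0 := by
  have h : pxM = ew [1, 0] := by decide +kernel
  rw [h]; exact ew_mem _

theorem pyM_mem : pyM ∈ K0 := by
  have h : pyM = ew [2, 0, 2, 0, 1, 1, 0, 2, 0, 2, 0, 2, 0, 2, 0, 1] := by decide +kernel
  rw [h]; exact ew_mem _

theorem ptM_mem : ptM ∈ K0 := by
  have h : ptM = ew [1, 0, 2, 0, 2, 0, 2, 0, 2, 0, 1, 0, 1, 0] := by decide +kernel
  rw [h]; exact ew_mem _

def XM : K0 := ⟨pxM, pxM_mem⟩
def YM : K0 := ⟨pyM, pyM_mem⟩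
def TM : K0 := ⟨ptM, ptM_mem⟩

theorem relM0 : RelM pxM pyM ptM := by
  constructor <;> decide +kernel

theorem relM : RelM XM YM TM :=
  ⟨Subtype.ext relM0.r1, Subtype.ext relM0.r2, Subtype.ext relM0.r3, Subtype.ext relM0.r4, Subtype.ext relM0.r5⟩

theorem genM : (closure {XM, YM, TM} : Subgroup K0) = ⊤ := by
  have hx : XM ∈ (closure {XM, YM, TM} : Subgroup K0) := subset_closure (Or.inl rfl)
  have hy : YM ∈ (closure {XM, YM, TM} : Subgroup K0) := subset_closure (Or.inr (Or.inl rfl))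
  have ht : TM ∈ (closure {XM, YM, TM} : Subgroup K0) := subset_closure (Or.inr (Or.inr rfl))
  have ea : qa = XM * XM * TM * YM⁻¹ * XM⁻¹ * TM :=
    Subtype.ext (show pa = pxM * pxM * ptM * pyM⁻¹ * pxM⁻¹ * ptM by decide +kernel)
  have eb : qb = YM⁻¹ * YM⁻¹ * XM * TM * XM⁻¹ * TM :=
    Subtype.ext (show pb = pyM⁻¹ * pyM⁻¹ * pxM * ptM * pxM⁻¹ * ptM by decide +kernel)
  rw [eq_top_iff, ← closure_eq_top, closure_le]
  rintro s (rfl | rfl)
  · rw [ea]
    exact mul_mem (mul_mem (mul_mem (mul_mem (mul_mem hx hx) ht) (inv_mem hy)) (inv_mem hx)) ht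
  · rw [eb]
    exact mul_mem (mul_mem (mul_mem (mul_mem (mul_mem (inv_mem hy) (inv_mem hy)) hx) ht) (inv_mem hx)) ht

namespace RelM

variable {G : Type*} [Group G] {x y t : G}

theorem hom (h : RelM x y t) : ∃ φ : K0 →* G, φ XM = x ∧ φ YM = y ∧ φ TM = t :=
  exists_hom3 genM (by rw [card_eq]; exact (relM.prod h).bound)

theorem emb (h : RelM x y t) (hx : x ≠ 1) :
    ∃ φ : K0 →* G, Function.Injective φ ∧ φ XM = x ∧ φ YM = y ∧ φ TM = t := by
  obtain ⟨φ, h1, h2, h3⟩ := h.hom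
  exact ⟨φ, inj_of (Abs.Q2.of_simple simple) φ (X := XM) (k := 5) (by rw [h1]; exact h.x_pow) (by rwa [h1]),
    h1, h2, h3⟩

/-- **The presentation of `M_11`.** -/
theorem iso (h : RelM x y t) (hx : x ≠ 1) : Nonempty ((closure {x, y, t} : Subgroup G) ≃* ↥Cfsg.Spor.M11) := by
  obtain ⟨φ, h0, h1, h2, h3⟩ := h.emb hx
  obtain ⟨e⟩ := iso_of genM φ h0 h1 h2 h3
  obtain ⟨f⟩ : Cfsg.Spor.IsoM11 K0 := TwoGenCore.IsoMEleven.isoM11 ⟨simple, card_eq⟩
  exact ⟨e.trans f⟩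

theorem orderOf_x (h : RelM x y t) (hx : x ≠ 1) : orderOf x = 11 := by
  have : Fact (Nat.Prime 11) := ⟨by norm_num⟩
  exact orderOf_eq_prime h.x_pow hx

theorem orderOf_y (h : RelM x y t) (hx : x ≠ 1) : orderOf y = 5 := by
  have : Fact (Nat.Prime 5) := ⟨by norm_num⟩
  obtain ⟨φ, h0, -, h2, -⟩ := h.emb hx
  rw [← h2, orderOf_injective φ h0]
  refine orderOf_eq_prime (Subtype.ext (show pyM ^ 5 = 1 by decide +kernel)) fun h1 => ?_
  exact absurd (congrArg Subtype.val h1) (show pyM ≠ 1 by decide +kernel)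

end RelM

end Cfsg.Agent.BMx.Pres
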